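import Cfsg.Agent.PGroup.KrekninScalars
import Mathlib.Algebra.MonoidAlgebra.Module

/-!
Lie rings with an automorphism of prime order `p` whose trace is killed by `p ^ n`:
a power of `p` depending on `n` and `p` alone kills a bounded term of the lower central series.
-/

set_option linter.style.haveILetI false

open scoped TensorProduct

namespace Cfsg.Agent.AlmostFixed

open Cfsg.Agent.PGroup.Kreknin

variable {p : ℕ} [hp : Fact p.Prime]

/-- An automorphism of order `p` with trace killed by `p ^ n`. -/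
structure SmallTrace (p n : ℕ) (L : Type*) [LieRing L] where
  α : L →+ L
  lie : ∀ x y, α ⁅x, y⁆ = ⁅α x, α y⁆
  order : ∀ x, α^[p] x = x
  trace : ∀ x, p ^ n • ∑ i ∈ Finset.range p, α^[i] x = 0

variable {n : ℕ} {L : Type*} [LieRing L] (D : SmallTrace p n L)

/-- The extended automorphism. -/
noncomputable def SmallTrace.T : Ext p L →ₗ[CycInt p] Ext p L :=
  D.α.toIntLinearMap.baseChange (CycInt p)

theorem SmallTrace.T_tmul (a : CycInt p) (x : L) : D.T (a ⊗ₜ x) = a ⊗ₜ D.α x := rfl

theorem SmallTrace.T_iterate_tmul (k : ℕ) (a : CycInt p) (x : L) :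
    D.T^[k] (a ⊗ₜ x) = a ⊗ₜ D.α^[k] x := by
  induction k with
  | zero => rfl
  | succ k ih => rw [Function.iterate_succ_apply', Function.iterate_succ_apply', ih, D.T_tmul]

theorem SmallTrace.T_lie (x y : Ext p L) : D.T ⁅x, y⁆ = ⁅D.T x, D.T y⁆ := by
  induction x using TensorProduct.induction_on with
  | zero => simp only [zero_lie, map_zero]
  | tmul a u =>
    induction y using TensorProduct.induction_on with
    | zero =>
      refine (congrArg D.T (lie_zero (a ⊗ₜ[ℤ] u : Ext p L))).trans ?_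
      rw [map_zero]
      exact (lie_zero (M := Ext p L) (L := Ext p L) _).symm
    | tmul b v => rw [LieAlgebra.ExtendScalars.bracket_tmul, D.T_tmul, D.lie, D.T_tmul, D.T_tmul,
        LieAlgebra.ExtendScalars.bracket_tmul]
    | add v w hv hw =>
      refine (congrArg D.T (lie_add (a ⊗ₜ[ℤ] u : Ext p L) v w)).trans ?_
      rw [map_add, hv, hw, map_add]
      exact (lie_add (D.T (a ⊗ₜ[ℤ] u) : Ext p L) (D.T v) (D.T w)).symm
  | add u w hu hw => simp only [add_lie, map_add, hu, hw]

theorem SmallTrace.T_add (k : ℕ) (x y : Ext p L) : D.T^[k] (x + y) = D.T^[k] x + D.T^[k] y :=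
  iterate_map_add D.T k x y

theorem SmallTrace.T_order (x : Ext p L) : D.T^[p] x = x := by
  induction x using TensorProduct.induction_on with
  | zero => exact iterate_map_zero _ _
  | tmul a u => rw [D.T_iterate_tmul, D.order]
  | add u w hu hw => rw [D.T_add, hu, hw]

theorem SmallTrace.T_trace (x : Ext p L) : p ^ n • ∑ i ∈ Finset.range p, D.T^[i] x = 0 := by
  induction x using TensorProduct.induction_on with
  | zero => simp [iterate_map_zero]
  | tmul a u =>
    simp only [D.T_iterate_tmul]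
    rw [← TensorProduct.tmul_sum, ← TensorProduct.tmul_smul, D.trace, TensorProduct.tmul_zero]
  | add u w hu hw => simp only [D.T_add, Finset.sum_add_distrib, smul_add, hu, hw, add_zero]

/-- Iterates indexed by residues. -/
noncomputable def SmallTrace.Tp (k : ZMod p) (x : Ext p L) : Ext p L := D.T^[k.val] x

theorem SmallTrace.Tp_succ (k : ZMod p) (x : Ext p L) : D.Tp (k + 1) x = D.T (D.Tp k x) := by
  rw [SmallTrace.Tp, SmallTrace.Tp, ← Function.iterate_succ_apply' D.T]
  have h1 : (k + 1).val = (k.val + 1) % p := by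
    rw [ZMod.val_add, ZMod.val_one]
  rw [h1]
  have hlt := ZMod.val_lt k
  by_cases h : k.val + 1 < p
  · rw [Nat.mod_eq_of_lt h]
  · rw [show k.val + 1 = p by omega, Nat.mod_self, Nat.succ_eq_add_one,
      show k.val + 1 = p by omega, D.T_order, Function.iterate_zero_apply]

/-- The unnormalised projection. -/
noncomputable def SmallTrace.proj (j : ZMod p) (x : Ext p L) : Ext p L :=
  ∑ i : ZMod p, zeta (-(i * j)) • D.Tp i x

theorem SmallTrace.T_proj (j : ZMod p) (x : Ext p L) : D.T (D.proj j x) = zeta j • D.proj j x := by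
  show D.T (∑ i : ZMod p, zeta (-(i * j)) • D.Tp i x) = zeta j • ∑ i : ZMod p, zeta (-(i * j)) • D.Tp i x
  rw [map_sum, Finset.smul_sum]
  refine Fintype.sum_bijective (· + 1) (Equiv.addRight (1 : ZMod p)).bijective _ _ fun i => ?_
  rw [map_smul, smul_smul, ← zeta_add, ← D.Tp_succ]
  congr 2
  ring

theorem SmallTrace.sum_proj (x : Ext p L) : ∑ j : ZMod p, D.proj j x = p • x := by
  show ∑ j : ZMod p, ∑ i : ZMod p, zeta (-(i * j)) • D.Tp i x = p • x
  rw [Finset.sum_comm]
  have h1 : ∀ i : ZMod p, ∑ j : ZMod p, zeta (-(i * j)) • D.Tp i x =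
      if i = 0 then p • x else 0 := fun i => by
    rw [← Finset.sum_smul]
    split_ifs with hi
    · subst hi
      simp only [zero_mul, neg_zero, zeta_zero, Finset.sum_const, Finset.card_univ, ZMod.card,
        SmallTrace.Tp, ZMod.val_zero, Function.iterate_zero_apply]
      rw [smul_assoc, one_smul]
    · rw [show (∑ j : ZMod p, zeta (-(i * j))) = ∑ j : ZMod p, zeta ((-i) * j) by
        simp only [neg_mul], zeta_mul_sum (neg_ne_zero.mpr hi), zero_smul]
  rw [Finset.sum_congr rfl (fun i _ => h1 i), Finset.sum_ite_eq' Finset.univ (0 : ZMod p),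
    if_pos (Finset.mem_univ _)]

theorem SmallTrace.fixed_torsion {x : Ext p L} (hx : D.T x = x) : p ^ (n + 1) • x = 0 := by
  have h := D.T_trace x
  rw [Finset.sum_congr rfl (fun i _ => Function.iterate_fixed hx i), Finset.sum_const,
    Finset.card_range, ← mul_smul, ← pow_succ] at h
  exact h

/-- The multiples by `p ^ (n + 1)` of the eigenvectors of degree `j`. -/
noncomputable def SmallTrace.S (j : ZMod p) : AddSubgroup (Ext p L) where
  carrier := {y | ∃ x, D.T x = zeta j • x ∧ p ^ (n + 1) • x = y}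
  zero_mem' := ⟨0, by rw [map_zero, smul_zero], smul_zero _⟩
  add_mem' := by
    rintro a b ⟨x, hx, rfl⟩ ⟨y, hy, rfl⟩
    exact ⟨x + y, by rw [map_add, hx, hy, smul_add], smul_add _ _ _⟩
  neg_mem' := by
    rintro a ⟨x, hx, rfl⟩
    exact ⟨-x, by rw [map_neg, hx, smul_neg], smul_neg _ _⟩

theorem SmallTrace.S_zero {y : Ext p L} (hy : y ∈ D.S 0) : y = 0 := by
  obtain ⟨x, hx, rfl⟩ := hy
  rw [zeta_zero, one_smul] at hx
  exact D.fixed_torsion hx

theorem SmallTrace.S_lie {i j : ZMod p} {a b : Ext p L} (ha : a ∈ D.S i) (hb : b ∈ D.S j) :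
    ⁅a, b⁆ ∈ D.S (i + j) := by
  obtain ⟨x, hx, rfl⟩ := ha
  obtain ⟨y, hy, rfl⟩ := hb
  refine ⟨⁅x, p ^ (n + 1) • y⁆, ?_, (nsmul_lie x _ _).symm⟩
  rw [D.T_lie, hx, map_nsmul, hy, zeta_add, mul_smul, smul_comm (p ^ (n + 1)) (zeta j) y]
  exact (smul_lie (zeta i) x _).trans (congrArg (zeta i • ·) (lie_smul (zeta j) x _))

end Cfsg.Agent.AlmostFixed

namespace Cfsg.Agent.AlmostFixed

/-- Functions on residues with the convolution bracket. -/
def Conv (p : ℕ) (E : Type*) : Type _ := ZMod p → E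

namespace Conv

variable {p : ℕ} [NeZero p] {E : Type*} [LieRing E]

noncomputable instance instAddCommGroupConv : AddCommGroup (Conv p E) :=
  inferInstanceAs (AddCommGroup (ZMod p → E))

noncomputable instance instLieRingConv : LieRing (Conv p E) where
  bracket f g := fun k => ∑ i : ZMod p, ⁅f i, g (k - i)⁆
  add_lie f g h := by
    funext k
    show ∑ i : ZMod p, ⁅f i + g i, h (k - i)⁆ =
      (∑ i : ZMod p, ⁅f i, h (k - i)⁆) + ∑ i : ZMod p, ⁅g i, h (k - i)⁆
    simp only [add_lie, Finset.sum_add_distrib]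
  lie_add f g h := by
    funext k
    show ∑ i : ZMod p, ⁅f i, g (k - i) + h (k - i)⁆ =
      (∑ i : ZMod p, ⁅f i, g (k - i)⁆) + ∑ i : ZMod p, ⁅f i, h (k - i)⁆
    simp only [lie_add, Finset.sum_add_distrib]
  lie_self f := by
    funext k
    show ∑ i : ZMod p, ⁅f i, f (k - i)⁆ = 0
    refine Finset.sum_involution (fun i _ => k - i) ?_ ?_ (fun _ _ => Finset.mem_univ _)
      (fun a _ => sub_sub_cancel k a)
    · intro a _
      rw [sub_sub_cancel, ← lie_skew, neg_add_cancel]
    · intro a _ ha h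
      rw [h, lie_self] at ha
      exact ha rfl
  leibniz_lie f g h := by
    funext k
    show ∑ i : ZMod p, ⁅f i, ∑ j : ZMod p, ⁅g j, h (k - i - j)⁆⁆ =
      (∑ m : ZMod p, ⁅∑ i : ZMod p, ⁅f i, g (m - i)⁆, h (k - m)⁆) +
        ∑ j : ZMod p, ⁅g j, ∑ i : ZMod p, ⁅f i, h (k - j - i)⁆⁆
    simp only [lie_sum, sum_lie]
    rw [Finset.sum_comm (f := fun m i => ⁅⁅f i, g (m - i)⁆, h (k - m)⁆),
      Finset.sum_comm (f := fun j i => ⁅g j, ⁅f i, h (k - j - i)⁆⁆), ← Finset.sum_add_distrib]
    refine Finset.sum_congr rfl fun i _ => ?_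
    rw [← Equiv.sum_comp (Equiv.addLeft i) (fun m => ⁅⁅f i, g (m - i)⁆, h (k - m)⁆),
      ← Finset.sum_add_distrib]
    refine Finset.sum_congr rfl fun j _ => ?_
    simp only [Equiv.coe_addLeft, add_sub_cancel_left, sub_add_eq_sub_sub]
    rw [sub_right_comm k j i]
    exact leibniz_lie _ _ _

/-- Homogeneous embedding. -/
noncomputable def emb (j : ZMod p) : E →+ Conv p E := AddMonoidHom.single (fun _ : ZMod p => E) j

/-- Component of a given degree. -/
def coef (i : ZMod p) : Conv p E →+ E where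
  toFun f := f i
  map_zero' := rfl
  map_add' _ _ := rfl

theorem coef_emb (i j : ZMod p) (a : E) : coef i (emb j a) = if j = i then a else 0 := by
  show (Pi.single j a : ZMod p → E) i = _
  rw [Pi.single_apply]
  simp only [eq_comm]

theorem emb_lie (i j : ZMod p) (a b : E) : ⁅emb i a, emb j b⁆ = emb (i + j) ⁅a, b⁆ := by
  funext k
  show ∑ m : ZMod p, ⁅(Pi.single i a : ZMod p → E) m, (Pi.single j b : ZMod p → E) (k - m)⁆ =
    (Pi.single (i + j) ⁅a, b⁆ : ZMod p → E) k
  rw [Finset.sum_eq_single i]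
  · simp only [Pi.single_apply, if_pos rfl, sub_eq_iff_eq_add']
    split_ifs <;> simp
  · intro m _ hm
    simp [Pi.single_apply, hm]
  · simp

end Conv

open Cfsg.Agent.PGroup.Kreknin Conv

variable {p : ℕ} [hp : Fact p.Prime] {n : ℕ} {L : Type*} [LieRing L] (D : SmallTrace p n L)

variable (p L) in
/-- The graded envelope. -/
abbrev Env := Conv p (Ext p L)

/-- The graded Lie ring. -/
noncomputable def SmallTrace.M : LieSubalgebra ℤ (Env p L) where
  carrier := AddSubgroup.closure {z | ∃ j, ∃ y ∈ D.S j, emb j y = z}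
  zero_mem' := zero_mem _
  add_mem' := add_mem
  smul_mem' c x hx := zsmul_mem hx c
  lie_mem' {x y} hx hy := by
    refine lie_mem_of_closure ?_ hx hy
    rintro _ ⟨i, a, ha, rfl⟩ _ ⟨j, b, hb, rfl⟩
    rw [emb_lie]
    exact AddSubgroup.subset_closure ⟨i + j, _, D.S_lie ha hb, rfl⟩

theorem SmallTrace.emb_mem {j : ZMod p} {y : Ext p L} (hy : y ∈ D.S j) : emb j y ∈ D.M :=
  AddSubgroup.subset_closure ⟨j, y, hy, rfl⟩

theorem SmallTrace.coef_mem (i : ZMod p) {m : Env p L} (hm : m ∈ D.M) : coef i m ∈ D.S i := by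
  refine AddSubgroup.closure_induction ?_ ?_ ?_ ?_ (show m ∈ AddSubgroup.closure _ from hm)
  · rintro _ ⟨j, y, hy, rfl⟩
    rw [coef_emb]
    split_ifs with h
    · exact h ▸ hy
    · exact zero_mem _
  · rw [map_zero]; exact zero_mem _
  · intro a b _ _ ha hb; rw [map_add]; exact add_mem ha hb
  · intro a _ ha; rw [map_neg]; exact neg_mem ha

/-- The grading of the graded Lie ring. -/
noncomputable def SmallTrace.grading : Grading p D.M where
  C j :=
    { carrier := {m | ∃ y ∈ D.S j, emb j y = (m : Env p L)}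
      zero_mem' := ⟨0, zero_mem _, by simp⟩
      add_mem' := by
        rintro a b ⟨y, hy, ha⟩ ⟨z, hz, hb⟩
        exact ⟨y + z, add_mem hy hz, by rw [map_add, ha, hb]; rfl⟩
      neg_mem' := by
        rintro a ⟨y, hy, ha⟩
        exact ⟨-y, neg_mem hy, by rw [map_neg, ha]; rfl⟩ }
  P i :=
    AddMonoidHom.mk' (fun m => ⟨emb i (coef i (m : Env p L)), D.emb_mem (D.coef_mem i m.2)⟩)
      fun a b => Subtype.ext (by simp [map_add])
  lie_mem := by
    rintro i j x y ⟨a, ha, hax⟩ ⟨b, hb, hby⟩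
    refine ⟨⁅a, b⁆, D.S_lie ha hb, ?_⟩
    rw [LieSubalgebra.coe_bracket, ← hax, ← hby, emb_lie]
  proj_self := by
    rintro i x ⟨a, ha, hax⟩
    refine Subtype.ext ?_
    show emb i (coef i (x : Env p L)) = x
    rw [← hax, coef_emb, if_pos rfl]
  proj_ne := by
    rintro i j x ⟨a, ha, hax⟩ hji
    refine Subtype.ext ?_
    show emb i (coef i (x : Env p L)) = 0
    rw [← hax, coef_emb, if_neg hji, map_zero]
  span x := by
    have key : ∀ (m : Env p L) (hm : m ∈ AddSubgroup.closure {z | ∃ j, ∃ y ∈ D.S j, emb j y = z}),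
        (⟨m, hm⟩ : D.M) ∈ AddSubgroup.closure {z : D.M | ∃ i, ∃ y ∈ D.S i, emb i y = (z : Env p L)} := by
      intro m hm
      induction hm using AddSubgroup.closure_induction with
      | mem z hz => exact AddSubgroup.subset_closure hz
      | zero => exact zero_mem _
      | add a b _ _ ha hb => exact add_mem ha hb
      | neg a _ ha => exact neg_mem ha
    exact key x.1 x.2
  zero := by
    rw [eq_bot_iff]
    rintro x ⟨a, ha, hax⟩
    refine AddSubgroup.mem_bot.mpr (Subtype.ext ?_)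
    rw [← hax, D.S_zero ha, map_zero]
    rfl

/-- Forgetting the grading. -/
noncomputable def forget : Env p L →+ Ext p L := ∑ i : ZMod p, coef i

theorem forget_emb (j : ZMod p) (a : Ext p L) : forget (emb j a) = a := by
  simp [forget, coef_emb]

theorem SmallTrace.forget_lie {x y : Env p L} (hx : x ∈ D.M) (hy : y ∈ D.M) :
    forget ⁅x, y⁆ = ⁅forget x, forget y⁆ := by
  refine AddSubgroup.closure_induction ?_ ?_ ?_ ?_ (show x ∈ AddSubgroup.closure _ from hx)
  · rintro _ ⟨i, a, -, rfl⟩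
    refine AddSubgroup.closure_induction ?_ ?_ ?_ ?_ (show y ∈ AddSubgroup.closure _ from hy)
    · rintro _ ⟨j, b, -, rfl⟩
      rw [emb_lie, forget_emb, forget_emb, forget_emb]
    · rw [lie_zero, map_zero]
      exact (lie_zero (M := Ext p L) (L := Ext p L) _).symm
    · intro u v _ _ hu hv
      rw [lie_add, map_add, hu, hv, map_add]
      exact (lie_add (forget (emb i a) : Ext p L) (forget u) (forget v)).symm
    · intro u _ hu
      rw [lie_neg, map_neg, hu, map_neg]
      exact (lie_neg (forget (emb i a) : Ext p L) (forget u)).symm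
  · simp
  · intro u v _ _ hu hv; simp only [add_lie, map_add, hu, hv]
  · intro u _ hu; simp only [neg_lie, map_neg, hu]

/-- The scaling factor. -/
abbrev sc (p n : ℕ) : ℕ := p ^ (n + 1) * p

theorem SmallTrace.exists_lift (x : Ext p L) : ∃ m : D.M, forget (m : Env p L) = sc p n • x := by
  refine ⟨⟨∑ j : ZMod p, emb j (p ^ (n + 1) • D.proj j x),
    sum_mem fun j _ => D.emb_mem ⟨_, D.T_proj j x, rfl⟩⟩, ?_⟩
  show forget (∑ j : ZMod p, emb j (p ^ (n + 1) • D.proj j x)) = sc p n • x
  rw [map_sum]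
  simp only [forget_emb]
  rw [← Finset.smul_sum, D.sum_proj, mul_smul]

theorem SmallTrace.lift_lcs : ∀ (k : ℕ) {x : L}, x ∈ lcs L k →
    ∃ m ∈ lcs D.M k, forget (m : Env p L) = sc p n ^ (k + 1) • ((1 : CycInt p) ⊗ₜ[ℤ] x) := by
  intro k
  induction k with
  | zero =>
    intro x _
    obtain ⟨m, hm⟩ := D.exists_lift ((1 : CycInt p) ⊗ₜ[ℤ] x)
    exact ⟨m, AddSubgroup.mem_top _, by rw [hm, pow_one]⟩
  | succ k ih =>
    intro x hx
    refine AddSubgroup.closure_induction ?_ ?_ ?_ ?_ (show x ∈ AddSubgroup.closure _ from hx)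
    · rintro z ⟨u, hu, v, rfl⟩
      obtain ⟨a, ha, hau⟩ := ih hu
      obtain ⟨b, hb⟩ := D.exists_lift ((1 : CycInt p) ⊗ₜ[ℤ] v)
      refine ⟨⁅a, b⁆, lie_mem_lcs_succ ha b, ?_⟩
      rw [LieSubalgebra.coe_bracket, D.forget_lie a.2 b.2, hau, hb, nsmul_lie, lie_nsmul,
        ← mul_smul, ← pow_succ, LieAlgebra.ExtendScalars.bracket_tmul, mul_one]
    · exact ⟨0, zero_mem _, by simp⟩
    · rintro u v - - ⟨a, ha, hau⟩ ⟨b, hb, hbv⟩
      refine ⟨a + b, add_mem ha hb, ?_⟩
      rw [AddMemClass.coe_add, map_add, hau, hbv, TensorProduct.tmul_add, smul_add]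
    · rintro u - ⟨a, ha, hau⟩
      refine ⟨-a, neg_mem ha, ?_⟩
      rw [NegMemClass.coe_neg, map_neg, hau, TensorProduct.tmul_neg, smul_neg]

/-- The Higman bound. -/
abbrev higman (p : ℕ) : ℕ := ∑ i ∈ Finset.range (2 ^ (p - 1) - 1), (p - 1) ^ i

include D in
theorem SmallTrace.lcs_torsion {x : L} (hx : x ∈ lcs L (higman p)) :
    sc p n ^ (higman p + 1) • x = 0 := by
  obtain ⟨m, hm, hmx⟩ := D.lift_lcs _ hx
  rw [D.grading.lcs_eq_bot, AddSubgroup.mem_bot] at hm
  rw [hm, ZeroMemClass.coe_zero, map_zero, ← TensorProduct.tmul_smul] at hmx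
  exact one_tmul_eq_zero hmx.symm

end Cfsg.Agent.AlmostFixed
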