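import Cfsg.Agent.AlmostFixed.Kreknin
import Cfsg.Agent.PGroup.AssocLie
import Mathlib.GroupTheory.Solvable
import Mathlib.GroupTheory.Nilpotent
import Mathlib.GroupTheory.PGroup

/-!
Alperin's theorem for finite `p`-groups: an automorphism `φ` with `φ^p = 1` and at most `p ^ n`
fixed points bounds the derived length in terms of `p` and `n`.
-/

set_option linter.style.haveILetI false

open scoped commutatorElement

namespace Cfsg.Agent.AlmostFixed

open Cfsg.Agent.PGroup Cfsg.Agent.PGroup.AssocLie

theorem card_fixed_quotient {G : Type*} [Group G] [Finite G] (φ : G ≃* G) (N : Subgroup G) [N.Normal]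
    (ψ : G ⧸ N →* G ⧸ N) (hψ : ∀ g : G, ψ (g : G ⧸ N) = ((φ g : G) : G ⧸ N)) :
    Nat.card {q // ψ q = q} ≤ Nat.card {g // φ g = g} := by
  classical
  have hX : ∀ g : G, (g : G ⧸ N) ∈ {q | ψ q = q} → g⁻¹ * φ g ∈ N := by
    intro g hg
    rw [Set.mem_ofPred_eq, hψ] at hg
    exact QuotientGroup.eq.mp hg.symm
  let v : ((QuotientGroup.mk : G → G ⧸ N) ⁻¹' {q | ψ q = q}) → N :=
    fun g => ⟨(g : G)⁻¹ * φ g, hX g g.2⟩
  let r : N → G := fun m => if h : ∃ g, v g = m then (h.choose : G) else 1
  have hr : ∀ g : ((QuotientGroup.mk : G → G ⧸ N) ⁻¹' {q | ψ q = q}), (r (v g))⁻¹ * φ (r (v g)) = (g : G)⁻¹ * φ g := by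
    intro g
    have h : ∃ g', v g' = v g := ⟨g, rfl⟩
    simp only [r, dif_pos h]
    exact congrArg Subtype.val h.choose_spec
  have hC : ∀ g : ((QuotientGroup.mk : G → G ⧸ N) ⁻¹' {q | ψ q = q}), φ ((g : G) * (r (v g))⁻¹) = (g : G) * (r (v g))⁻¹ := by
    intro g
    have e := hr g
    have e1 : φ (g : G) = g * ((r (v g))⁻¹ * φ (r (v g))) := by rw [e, mul_inv_cancel_left]
    rw [map_mul, map_inv, e1]
    group
  let F : ((QuotientGroup.mk : G → G ⧸ N) ⁻¹' {q | ψ q = q}) → N × {g // φ g = g} :=
    fun g => (v g, ⟨_, hC g⟩)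
  have hF : Function.Injective F := by
    intro a b hab
    have h1 : v a = v b := congrArg Prod.fst hab
    have h2 := congrArg Subtype.val (congrArg Prod.snd hab)
    change (a : G) * (r (v a))⁻¹ = (b : G) * (r (v b))⁻¹ at h2
    rw [h1] at h2
    exact Subtype.ext (mul_right_cancel h2)
  have h := Nat.card_le_card_of_injective F hF
  rw [Nat.card_congr (QuotientGroup.preimageMkEquivSubgroupProdSet N _), Nat.card_prod,
    Nat.card_prod] at h
  exact Nat.le_of_mul_le_mul_left h Nat.card_pos

theorem card_fixed_subgroup {G : Type*} [Group G] [Finite G] (φ : G → G) (H : Subgroup G)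
    (ψ : H → H) (hψ : ∀ x : H, (ψ x : G) = φ x) :
    Nat.card {x // ψ x = x} ≤ Nat.card {g // φ g = g} :=
  Nat.card_le_card_of_injective
    (fun x => ⟨(x.1 : G), (hψ x.1).symm.trans (congrArg Subtype.val x.2)⟩)
    fun _ _ h => Subtype.ext (Subtype.ext (congrArg (fun z => (z.1 : G)) h))

/-- An abelian group of exponent dividing `p ^ K` with few fixed points is small. -/
theorem card_le_of_fixed {A : Type*} [AddCommGroup A] [Finite A] {p : ℕ} (hp : p.Prime) (a : AddMonoid.End A)
    (ha : a ^ p = 1) {K : ℕ} (hK : ∀ x : A, p ^ K • x = 0) {B : ℕ}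
    (hB : Nat.card {x // a x = x} ≤ B) : Nat.card A ≤ B ^ (p * K) := by
  obtain ⟨r, hr⟩ : ∃ r : AddMonoid.End A, (a - 1) ^ p = (p : AddMonoid.End A) * r := by
    obtain ⟨r, hr⟩ := (Commute.neg_one_right a).exists_add_pow_prime_eq hp
    rw [sub_eq_add_neg]
    rcases hp.eq_two_or_odd' with h2 | hodd
    · subst h2
      exact ⟨1 + a * -1 * r, by
        rw [hr, ha, neg_one_sq, mul_add, mul_one, Nat.cast_ofNat, one_add_one_eq_two, ← mul_assoc,
          ← mul_assoc]⟩
    · exact ⟨a * -1 * r, by
        rw [hr, ha, hodd.neg_one_pow, add_neg_cancel, zero_add, mul_assoc (p : AddMonoid.End A),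
          mul_assoc (p : AddMonoid.End A)]⟩
  have hzero : ∀ x, ((a - 1) ^ (p * K)) x = 0 := by
    intro x
    rw [pow_mul, hr, ((Nat.cast_commute p r).mul_pow K), ← Nat.cast_pow]
    show ((p ^ K : ℕ) : AddMonoid.End A) ((r ^ K) x) = 0
    rw [AddMonoid.End.natCast_apply]
    exact hK _
  have hstep : ∀ m, Nat.card (AddMonoidHom.ker ((a - 1) ^ m : AddMonoid.End A)) ≤ B ^ m := by
    intro m
    induction m with
    | zero =>
      rw [pow_zero, pow_zero, Finite.card_le_one_iff_subsingleton]
      exact ⟨fun x y => Subtype.ext ((x.2 : x.1 = 0).trans (y.2 : y.1 = 0).symm)⟩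
    | succ m ih =>
      let g : AddMonoidHom.ker ((a - 1) ^ (m + 1) : AddMonoid.End A) →+
          AddMonoidHom.ker ((a - 1) ^ m : AddMonoid.End A) :=
        (((a - 1 : AddMonoid.End A) : A →+ A).comp (AddSubgroup.subtype _)).codRestrict _ fun x => by
          show ((a - 1) ^ m * (a - 1) : AddMonoid.End A) (x : A) = 0
          rw [← pow_succ]
          exact x.2
      have h1 : Nat.card g.ker ≤ B := by
        refine le_trans ?_ hB
        refine Nat.card_le_card_of_injective (fun x => ⟨((x.1 : _) : A), ?_⟩)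
          fun x y h => Subtype.ext (Subtype.ext (congrArg (fun z => z.1) h))
        have hx : (a - 1) ((x.1 : _) : A) = 0 := congrArg Subtype.val x.2
        exact sub_eq_zero.mp hx
      have h2 : g.ker.index ≤ B ^ m := by
        rw [AddSubgroup.index_ker]
        exact le_trans (Nat.card_le_card_of_injective Subtype.val Subtype.val_injective) ih
      calc _ = g.ker.index * Nat.card g.ker := g.ker.index_mul_card.symm
        _ ≤ B ^ m * B := Nat.mul_le_mul h2 h1
        _ = B ^ (m + 1) := (pow_succ B m).symm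
  refine le_trans ?_ (hstep (p * K))
  exact Nat.card_le_card_of_injective (fun x => ⟨x, hzero x⟩) fun _ _ h => congrArg Subtype.val h

theorem derivedSeries_card_eq_bot {H : Type*} [Group H] [Finite H] (hH : Group.IsSolvable H) {B : ℕ}
    (hB : Nat.card H ≤ B) : derivedSeries H B = ⊥ := by
  have key : ∀ k, derivedSeries H k = ⊥ ∨ Nat.card (derivedSeries H k) + k ≤ Nat.card H := by
    intro k
    induction k with
    | zero => right; rw [derivedSeries_zero, Subgroup.card_top, add_zero]
    | succ k ih =>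
      by_cases hb : derivedSeries H (k + 1) = ⊥
      · exact Or.inl hb
      right
      have hle : derivedSeries H (k + 1) ≤ derivedSeries H k := derivedSeries_antitone H (Nat.le_succ k)
      rcases ih with h | h
      · exact absurd (le_bot_iff.mp (h ▸ hle)) hb
      have hne : derivedSeries H (k + 1) ≠ derivedSeries H k := by
        intro he
        have hst : ∀ j, derivedSeries H (k + j) = derivedSeries H k := by
          intro j
          induction j with
          | zero => rfl
          | succ j ihj =>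
            rw [← add_assoc, derivedSeries_succ, ihj]
            exact he
        obtain ⟨j, hj⟩ := (Group.isSolvable_def H).mp hH
        refine hb (le_bot_iff.mp ?_)
        rw [← hj, he, ← hst j]
        exact derivedSeries_antitone H (Nat.le_add_left j k)
      have hlt : Nat.card (derivedSeries H (k + 1)) < Nat.card (derivedSeries H k) := by
        by_contra hge
        exact hne (Subgroup.eq_of_le_of_card_ge hle (not_lt.mp hge))
      omega
  rcases key B with h | h
  · exact h
  · have := Nat.card_pos (α := derivedSeries H B)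
    exact Subgroup.eq_bot_of_card_le _ (by omega)

/-- A solvable group acting on a set of bounded size: a bounded derived term lies in the kernel. -/
theorem derivedSeries_le_ker {G H : Type*} [Group G] [Finite G] (hG : Group.IsSolvable G) [Group H] [Finite H]
    (f : G →* H) {B : ℕ} (hB : Nat.card H ≤ B) : derivedSeries G B ≤ f.ker := by
  have hr : Group.IsSolvable f.range := by
    haveI := hG
    exact Group.isSolvable_of_surjective f.rangeRestrict_surjective
  have h := map_derivedSeries_le_derivedSeries f.rangeRestrict B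
  rw [derivedSeries_card_eq_bot hr (le_trans f.range.card_le_card_group hB),
    le_bot_iff, Subgroup.map_eq_bot_iff, MonoidHom.ker_rangeRestrict] at h
  exact h

theorem map_derivedSeries_add {G : Type*} [Group G] (t k : ℕ) :
    (derivedSeries (derivedSeries G t) k).map (derivedSeries G t).subtype = derivedSeries G (t + k) := by
  induction k with
  | zero => rw [derivedSeries_zero, ← MonoidHom.range_eq_map, Subgroup.range_subtype, add_zero]
  | succ k ih =>
    rw [derivedSeries_succ, Subgroup.map_commutator, ih, ← add_assoc, derivedSeries_succ]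

theorem ι_nsmul {G : Type*} [Group G] {k : ℕ} {g : G} (hg : g ∈ γ G k) :
    ∀ n : ℕ, n • ι k g = ι k (g ^ n) := by
  intro n
  induction n with
  | zero => rw [zero_smul, pow_zero, ι_one]
  | succ n ih => rw [succ_nsmul, ih, pow_succ, ι_mul (pow_mem hg n) hg]

theorem γ_characteristic (G : Type*) [Group G] (k : ℕ) : (γ G k).Characteristic := by
  refine Subgroup.characteristic_iff_map_le.mpr fun φ => ?_
  rintro _ ⟨g, hg, rfl⟩
  exact map_γ φ hg

/-- The exponent in Higman's bound. -/
abbrev expE (p n : ℕ) : ℕ := (n + 2) * (higman p + 1)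

section PGroup

variable {P : Type*} [Group P] [Finite P] {p n : ℕ} [hp : Fact p.Prime]

/-- The small trace on the Lie ring. -/
theorem smallTrace (hP : IsPGroup p P) (φ : P ≃* P) (hord : ∀ g, φ^[p] g = g)
    (hfix : Nat.card {g // φ g = g} ≤ p ^ n) : Nonempty (SmallTrace p n (L P)) := by
  refine ⟨⟨lieMap φ, lieMap_lie φ, ?_, ?_⟩⟩
  · intro x
    induction x using ι_induction with
    | zero => exact iterate_map_zero _ _
    | of k g hg => rw [(lieMap_iterate_ι φ p hg).1, hord]
    | add u v hu hv => rw [iterate_map_add, hu, hv]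
  · intro x
    induction x using ι_induction with
    | zero => simp [iterate_map_zero]
    | of k g hg =>
      set S := ∑ i ∈ Finset.range p, (lieMap φ)^[i] (ι k g) with hS
      obtain ⟨h, hh, hSh⟩ : ∃ h ∈ γ P k, S = ι k h := by
        rw [hS]
        refine Finset.sum_induction _ (fun s => ∃ h ∈ γ P k, s = ι k h) ?_ ⟨1, one_mem _, (ι_one k).symm⟩
          fun i _ => ⟨_, (lieMap_iterate_ι φ i hg).2, (lieMap_iterate_ι φ i hg).1⟩
        rintro _ _ ⟨a, ha, rfl⟩ ⟨b, hb, rfl⟩
        exact ⟨a * b, mul_mem ha hb, (ι_mul ha hb).symm⟩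
      have hfix' : lieMap φ S = S := by
        have e1 := Finset.sum_range_succ' (fun i => (lieMap φ)^[i] (ι k g)) p
        have e2 := Finset.sum_range_succ (fun i => (lieMap φ)^[i] (ι k g)) p
        rw [e2] at e1
        simp only [Function.iterate_zero_apply, (lieMap_iterate_ι φ p hg).1, hord] at e1
        rw [hS, map_sum]
        refine Eq.trans ?_ (add_right_cancel e1).symm
        exact Finset.sum_congr rfl fun i _ => (Function.iterate_succ_apply' _ i _).symm
      rw [hSh, lieMap_ι φ hh] at hfix'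
      have hmem : h⁻¹ * φ h ∈ γ P (k + 1) := ι_inj hh (map_γ φ hh) hfix'.symm
      let ψ : P ⧸ γ P (k + 1) →* P ⧸ γ P (k + 1) :=
        QuotientGroup.map _ _ φ.toMonoidHom fun x hx => map_γ φ hx
      have hψh : ψ (h : P ⧸ γ P (k + 1)) = (h : P ⧸ γ P (k + 1)) := (QuotientGroup.eq.mpr hmem).symm
      have hle := card_fixed_quotient φ (γ P (k + 1)) ψ fun g => rfl
      have hord' : orderOf (h : P ⧸ γ P (k + 1)) ≤ p ^ n := by
        refine le_trans ?_ (hle.trans hfix)
        have h1 := Subgroup.orderOf_dvd_natCard (s := ψ.eqLocus (MonoidHom.id _)) hψh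
        haveI : Nonempty {q // ψ q = q} := ⟨⟨1, map_one ψ⟩⟩
        exact Nat.le_of_dvd Nat.card_pos h1
      obtain ⟨a, ha⟩ := IsPGroup.iff_orderOf.mp (hP.to_quotient (γ P (k + 1))) (h : P ⧸ γ P (k + 1))
      have hdvd : orderOf (h : P ⧸ γ P (k + 1)) ∣ p ^ n := by
        rw [ha] at hord' ⊢
        exact pow_dvd_pow p ((Nat.pow_le_pow_iff_right hp.out.one_lt).mp hord')
      have hpow := orderOf_dvd_iff_pow_eq_one.mp hdvd
      rw [← QuotientGroup.mk_pow, QuotientGroup.eq_one_iff] at hpow
      rw [hSh, ι_nsmul hh, ι_eq_zero hpow]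
    | add u v hu hv => simp only [iterate_map_add, Finset.sum_add_distrib, smul_add, hu, hv, add_zero]

theorem pow_mem_γ_succ (hP : IsPGroup p P) (φ : P ≃* P) (hord : ∀ g, φ^[p] g = g)
    (hfix : Nat.card {g // φ g = g} ≤ p ^ n) {j : ℕ} (hj : higman p ≤ j) {g : P} (hg : g ∈ γ P j) :
    g ^ p ^ expE p n ∈ γ P (j + 1) := by
  obtain ⟨D⟩ := smallTrace hP φ hord hfix
  have h := D.lcs_torsion (Kreknin.lcs_le_of_le hj (ι_mem_lcs j hg))
  rw [sc, ← pow_succ, ← pow_mul, ι_nsmul hg, ← ι_one j] at h
  have h' := ι_inj (pow_mem hg _) (one_mem _) h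
  rw [mul_one, inv_mem_iff] at h'
  exact h'

/-- The bound on a section. -/
abbrev bnd (p n : ℕ) : ℕ := (p ^ n) ^ (p * (2 * expE p n))

/-- The bound on the derived length. -/
abbrev pBound (p n : ℕ) : ℕ := (bnd p n).factorial + (higman p + 2)

theorem pgroup_derived_bound (hP : IsPGroup p P) (φ : P ≃* P) (hord : ∀ g, φ^[p] g = g)
    (hfix : Nat.card {g // φ g = g} ≤ p ^ n) : derivedSeries P (pBound p n) = ⊥ := by
  have hPsolv : Group.IsSolvable P := by
    haveI := hP.isNilpotent
    infer_instance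
  set t := (bnd p n).factorial with ht
  set k := higman p + 1 with hk
  set Q := derivedSeries P t with hQdef
  have hQφ : ∀ x, x ∈ Q → φ x ∈ Q := fun x hx =>
    map_derivedSeries_le_derivedSeries φ.toMonoidHom t ⟨x, hx, rfl⟩
  let φQ : Q ≃* Q := MulEquiv.ofBijective ((φ.toMonoidHom.comp Q.subtype).codRestrict Q fun x => hQφ x x.2)
    (Finite.injective_iff_bijective.mp fun a b h => Subtype.ext (φ.injective (congrArg Subtype.val h)))
  have hordQ : ∀ x, φQ^[p] x = x := by
    intro x
    have : ∀ m, (((φQ^[m] x) : Q) : P) = φ^[m] (x : P) := by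
      intro m
      induction m with
      | zero => rfl
      | succ m ih => rw [Function.iterate_succ_apply', Function.iterate_succ_apply', ← ih]; rfl
    exact Subtype.ext ((this p).trans (hord x))
  have hfixQ : Nat.card {x // φQ x = x} ≤ p ^ n := (card_fixed_subgroup φ Q φQ fun _ => rfl).trans hfix
  have hpow : ∀ j, higman p ≤ j → ∀ g ∈ γ Q j, g ^ p ^ expE p n ∈ γ Q (j + 1) := fun j hj g hg =>
    pow_mem_γ_succ (hP.to_subgroup Q) φQ hordQ hfixQ hj hg
  haveI hQn : Q.Normal := derivedSeries_normal P t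
  haveI := γ_characteristic Q k
  haveI := γ_characteristic Q (k + 2)
  set N := (γ Q (k + 2)).map Q.subtype with hN
  set M := (γ Q k).map Q.subtype with hM
  haveI : N.Normal := inferInstance
  haveI : M.Normal := inferInstance
  set π := QuotientGroup.mk' N with hπ
  set Mb := M.map π with hMb
  haveI : Mb.Normal := Subgroup.Normal.map inferInstance π (QuotientGroup.mk'_surjective N)
  have hNφ : ∀ x ∈ N, φ x ∈ N := by
    rintro _ ⟨x, hx, rfl⟩
    exact ⟨φQ x, map_γ φQ hx, rfl⟩
  let ψ : P ⧸ N →* P ⧸ N := QuotientGroup.map N N φ.toMonoidHom fun x hx => hNφ x hx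
  have hMψ : ∀ x ∈ Mb, ψ x ∈ Mb := by
    rintro _ ⟨_, ⟨x, hx, rfl⟩, rfl⟩
    exact ⟨φ (x : P), ⟨φQ x, map_γ φQ hx, rfl⟩, rfl⟩
  have hcomm : ∀ a b : Mb, a * b = b * a := by
    rintro ⟨_, _, ⟨a, ha, rfl⟩, rfl⟩ ⟨_, _, ⟨b, hb, rfl⟩, rfl⟩
    refine Subtype.ext ?_
    show π (a : P) * π (b : P) = π (b : P) * π (a : P)
    rw [← map_mul, ← map_mul]
    refine QuotientGroup.eq.mpr ⟨(a * b)⁻¹ * (b * a), ?_, by simp⟩
    have h1 := comm_mem k k (inv_mem hb) (inv_mem ha)
    have h2 : (a * b)⁻¹ * (b * a) = ⁅b⁻¹, a⁻¹⁆ := by simp [commutatorElement_def, mul_assoc]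
    rw [h2]
    exact γ_le (by omega) h1
  letI : CommGroup Mb := { (inferInstance : Group Mb) with mul_comm := hcomm }
  let a : AddMonoid.End (Additive Mb) :=
    ((ψ.comp Mb.subtype).codRestrict Mb fun x => hMψ x x.2).toAdditive
  have hsmallM : Nat.card Mb ≤ bnd p n := by
    rw [← Nat.card_congr Additive.ofMul.symm]
    refine card_le_of_fixed hp.out a ?_ ?_ ?_
    · refine AddMonoidHom.ext fun x => ?_
      obtain ⟨⟨_, ⟨_, ⟨x, hx, rfl⟩, rfl⟩⟩, rfl⟩ := Additive.ofMul.surjective x
      have h1 : ∀ (m : ℕ) (y : Mb) (z : P), (y : P ⧸ N) = π z →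
          (((a ^ m) (Additive.ofMul y)).toMul : P ⧸ N) = π (φ^[m] z) := by
        intro m
        induction m with
        | zero => intro y z h; exact h
        | succ m ih =>
          intro y z h
          rw [pow_succ, Function.iterate_succ_apply]
          refine ih _ (φ z) ?_
          show ψ (y : P ⧸ N) = π (φ z)
          rw [h]
          rfl
      refine Additive.toMul.injective (Subtype.ext ?_)
      exact (h1 p _ (x : P) rfl).trans (congrArg π (hord _))
    · intro x
      obtain ⟨⟨_, ⟨_, ⟨x, hx, rfl⟩, rfl⟩⟩, rfl⟩ := Additive.ofMul.surjective x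
      rw [← ofMul_pow]
      refine (congrArg Additive.ofMul (?_ : _ = (1 : Mb))).trans ofMul_one
      refine Subtype.ext ?_
      rw [SubmonoidClass.coe_pow]
      show π (x : P) ^ _ = 1
      rw [← map_pow]
      refine (QuotientGroup.eq_one_iff _).mpr ⟨x ^ p ^ (2 * expE p n), ?_, map_pow _ _ _⟩
      rw [two_mul, pow_add, pow_mul]
      exact hpow (k + 1) (by omega) _ (hpow k (by omega) x hx)
    · refine le_trans ?_ ((card_fixed_quotient φ N ψ fun g => rfl).trans hfix)
      refine Nat.card_le_card_of_injective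
        (fun x => ⟨((Additive.toMul x.1 : Mb) : P ⧸ N), congrArg (fun z => ((Additive.toMul z : Mb) : P ⧸ N)) x.2⟩)
        fun x y h => Subtype.ext (Additive.toMul.injective (Subtype.ext (congrArg (fun z => z.1) h)))
  let f : P →* MulAut Mb := MulAut.conjNormal.comp π
  have hkerle : Q ≤ f.ker := by
    refine derivedSeries_le_ker hPsolv f ?_
    refine le_trans (Nat.card_le_card_of_injective MulEquiv.toEquiv fun _ _ h => MulEquiv.toEquiv_injective h) ?_
    classical
    letI := Fintype.ofFinite Mb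
    rw [Nat.card_eq_fintype_card, Fintype.card_perm, ← Nat.card_eq_fintype_card]
    exact Nat.factorial_le hsmallM
  have hstep : γ Q (k + 1) ≤ γ Q (k + 2) := by
    intro x hx
    have hx' := (Subgroup.mem_lowerCentralSeries_succ_iff (⊤ : Subgroup Q) k x).mp hx
    refine (Subgroup.closure_le _).mpr ?_ hx'
    rintro _ ⟨u, hu, q, -, rfl⟩
    have h1 : f (q : P) = 1 := hkerle q.2
    have h2 := DFunLike.congr_fun h1 ⟨π (u : P), _, ⟨u, hu, rfl⟩, rfl⟩
    have h3 : π (q : P) * π (u : P) * (π (q : P))⁻¹ = π (u : P) := congrArg Subtype.val h2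
    have h4 : π ((⁅u, q⁆ : Q) : P) = 1 := by
      simp only [commutatorElement_def, Subgroup.coe_mul, Subgroup.coe_inv, map_mul, map_inv]
      rw [← mul_inv_eq_iff_eq_mul.mp h3]
      group
    obtain ⟨y, hy, hye⟩ := (QuotientGroup.eq_one_iff _).mp h4
    exact (Subtype.ext hye : y = ⁅u, q⁆) ▸ hy
  have hnilQ : Group.IsNilpotent Q := (hP.to_subgroup Q).isNilpotent
  have hdown : ∀ m, γ Q (k + 1) ≤ γ Q (k + 1 + m) := by
    intro m
    induction m with
    | zero => exact le_rfl
    | succ m ih => exact hstep.trans (Subgroup.commutator_mono ih le_rfl)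
  obtain ⟨c, hc⟩ := Subgroup.nilpotent_iff_lowerCentralSeries.mp hnilQ
  have hbot : γ Q (k + 1) = ⊥ :=
    eq_bot_iff.mpr (((hdown c).trans (γ_le (Nat.le_add_left c (k + 1)))).trans hc.le)
  rw [pBound, ← ht, ← map_derivedSeries_add, Subgroup.map_eq_bot_iff, Subgroup.ker_subtype]
  exact le_trans (Subgroup.derived_le_lower_central _) hbot.le

end PGroup

end Cfsg.Agent.AlmostFixed
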