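import Cfsg.Agent.AlmostFixed.PGroupBound
import Cfsg.Agent.PSolv.HallHigman
import Cfsg.Agent.Coprime.Generation
import Cfsg.Agent.PGroup.Frattini

/-!
Alperin's theorem for solvable groups with trivial `p'`-core.
-/

set_option linter.style.haveILetI false

open scoped commutatorElement

namespace Cfsg.Agent.AlmostFixed

variable {G : Type*} [Group G] [Finite G] {p n : ℕ}

theorem derivedSeries_add_le {H : Subgroup G} {t : ℕ} (h : derivedSeries G t ≤ H) (l : ℕ) :
    derivedSeries G (t + l) ≤ (derivedSeries H l).map H.subtype := by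
  induction l with
  | zero => rwa [derivedSeries_zero, ← MonoidHom.range_eq_map, Subgroup.range_subtype, add_zero]
  | succ l ih =>
    rw [← add_assoc, derivedSeries_succ, derivedSeries_succ, Subgroup.map_commutator]
    exact Subgroup.commutator_mono ih ih

/-- The order bound for an elementary section. -/
abbrev eBnd (p n : ℕ) : ℕ := (p ^ n) ^ (p * 1)

theorem solvable_core_bound [hp : Fact p.Prime] (hG : Group.IsSolvable G) (φ : G ≃* G)
    (hord : ∀ g, φ^[p] g = g) (hfix : Nat.card {g // φ g = g} ≤ p ^ n)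
    (hO : Cfsg.pPrimeCore p G = ⊥) :
    derivedSeries G ((eBnd p n).factorial + pBound p n) = ⊥ := by
  set F := Cfsg.pCore p G with hFdef
  have hFp : IsPGroup p F := Cfsg.Agent.PSolv.isPGroup_pCore p G
  haveI : F.Characteristic := Cfsg.Agent.PSolv.pCore_characteristic p G
  have hFφ : ∀ x, x ∈ F → φ x ∈ F := fun x hx =>
    Subgroup.characteristic_iff_map_le.mp inferInstance φ ⟨x, hx, rfl⟩
  let φF : F ≃* F := MulEquiv.ofBijective ((φ.toMonoidHom.comp F.subtype).codRestrict F fun x => hFφ x x.2)
    (Finite.injective_iff_bijective.mp fun a b h => Subtype.ext (φ.injective (congrArg Subtype.val h)))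
  have hordF : ∀ x, φF^[p] x = x := by
    intro x
    have : ∀ m, (((φF^[m] x) : F) : G) = φ^[m] (x : G) := by
      intro m
      induction m with
      | zero => rfl
      | succ m ih => rw [Function.iterate_succ_apply', Function.iterate_succ_apply', ← ih]; rfl
    exact Subtype.ext ((this p).trans (hord x))
  have hFbot : derivedSeries F (pBound p n) = ⊥ :=
    pgroup_derived_bound hFp φF hordF ((card_fixed_subgroup φ F φF fun _ => rfl).trans hfix)
  haveI hFn : F.Normal := inferInstance
  set N := (frattini F).map F.subtype with hN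
  haveI : N.Normal := inferInstance
  have hNφ : ∀ x ∈ N, φ x ∈ N := by
    rintro _ ⟨x, hx, rfl⟩
    exact ⟨φF x, Subgroup.characteristic_iff_map_le.mp frattini_characteristic φF ⟨x, hx, rfl⟩, rfl⟩
  set π := QuotientGroup.mk' N with hπ
  set Mb := F.map π with hMb
  haveI : Mb.Normal := Subgroup.Normal.map inferInstance π (QuotientGroup.mk'_surjective N)
  let ψ : G ⧸ N →* G ⧸ N := QuotientGroup.map N N φ.toMonoidHom fun x hx => hNφ x hx
  have hMψ : ∀ x ∈ Mb, ψ x ∈ Mb := by
    rintro _ ⟨x, hx, rfl⟩
    exact ⟨φ x, hFφ x hx, rfl⟩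
  have hcomm : ∀ a b : Mb, a * b = b * a := by
    rintro ⟨_, a, ha, rfl⟩ ⟨_, b, hb, rfl⟩
    refine Subtype.ext ?_
    show π a * π b = π b * π a
    rw [← map_mul, ← map_mul]
    refine QuotientGroup.eq.mpr ⟨⁅(⟨b, hb⟩ : F)⁻¹, (⟨a, ha⟩ : F)⁻¹⁆,
      Cfsg.Agent.PGroup.commutatorElement_mem_frattini hFp _ _, ?_⟩
    simp [commutatorElement_def, mul_assoc]
  letI : CommGroup Mb := { (inferInstance : Group Mb) with mul_comm := hcomm }
  let a : AddMonoid.End (Additive Mb) :=
    ((ψ.comp Mb.subtype).codRestrict Mb fun x => hMψ x x.2).toAdditive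
  have hsmallM : Nat.card Mb ≤ eBnd p n := by
    rw [← Nat.card_congr Additive.ofMul.symm]
    refine card_le_of_fixed hp.out a ?_ ?_ ?_
    · refine AddMonoidHom.ext fun x => ?_
      obtain ⟨⟨_, ⟨x, hx, rfl⟩⟩, rfl⟩ := Additive.ofMul.surjective x
      have h1 : ∀ (m : ℕ) (y : Mb) (z : G), (y : G ⧸ N) = π z →
          (((a ^ m) (Additive.ofMul y)).toMul : G ⧸ N) = π (φ^[m] z) := by
        intro m
        induction m with
        | zero => intro y z h; exact h
        | succ m ih =>
          intro y z h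
          rw [pow_succ, Function.iterate_succ_apply]
          refine ih _ (φ z) ?_
          show ψ (y : G ⧸ N) = π (φ z)
          rw [h]
          rfl
      refine Additive.toMul.injective (Subtype.ext ?_)
      exact (h1 p _ x rfl).trans (congrArg π (hord _))
    · intro x
      obtain ⟨⟨_, ⟨x, hx, rfl⟩⟩, rfl⟩ := Additive.ofMul.surjective x
      rw [← ofMul_pow]
      refine (congrArg Additive.ofMul (?_ : _ = (1 : Mb))).trans ofMul_one
      refine Subtype.ext ?_
      rw [SubmonoidClass.coe_pow]
      show π x ^ _ = 1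
      rw [← map_pow, pow_one]
      exact (QuotientGroup.eq_one_iff _).mpr
        ⟨(⟨x, hx⟩ : F) ^ p, Cfsg.Agent.PGroup.pow_mem_frattini hFp _, rfl⟩
    · refine le_trans ?_ ((card_fixed_quotient φ N ψ fun g => rfl).trans hfix)
      refine Nat.card_le_card_of_injective
        (fun x => ⟨((Additive.toMul x.1 : Mb) : G ⧸ N), congrArg (fun z => ((Additive.toMul z : Mb) : G ⧸ N)) x.2⟩)
        fun x y h => Subtype.ext (Additive.toMul.injective (Subtype.ext (congrArg (fun z => z.1) h)))
  let f : G →* MulAut Mb := MulAut.conjNormal.comp π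
  have hkerle : derivedSeries G (eBnd p n).factorial ≤ f.ker := by
    refine derivedSeries_le_ker hG f ?_
    refine le_trans (Nat.card_le_card_of_injective MulEquiv.toEquiv fun _ _ h => MulEquiv.toEquiv_injective h) ?_
    classical
    letI := Fintype.ofFinite Mb
    rw [Nat.card_eq_fintype_card, Fintype.card_perm, ← Nat.card_eq_fintype_card]
    exact Nat.factorial_le hsmallM
  have hC : Subgroup.centralizer (F : Set G) ≤ F :=
    Cfsg.Agent.PSolv.centralizer_pCore_le (Cfsg.Agent.PSolv.isPSolvable_of_isSolvable hG) hO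
  have hKp : IsPGroup p f.ker := by
    intro x
    set m := orderOf (x : G) with hm
    have hm0 : m ≠ 0 := (orderOf_pos (x : G)).ne'
    set i := m.factorization p with hi
    set b := (x : G) ^ p ^ i with hb
    have hbo : orderOf b = m / p ^ i :=
      orderOf_pow_of_dvd (pow_ne_zero _ hp.out.ne_zero) (Nat.ordProj_dvd m p)
    have hbcop : (orderOf b).Coprime p := by
      rw [hbo, Nat.coprime_comm]
      exact Nat.coprime_ordCompl hp.out hm0
    obtain ⟨k, hk⟩ := IsPGroup.iff_card.mp (hFp.to_subgroup (frattini F))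
    have hcent : Subgroup.zpowers b ≤ Subgroup.centralizer (F : Set G) := by
      refine Cfsg.Agent.Coprime.le_centralizer_of_frattini ?_ ?_ ?_
      · rw [Subgroup.normalizer_eq_top F]
        exact le_top
      · rw [Nat.card_zpowers, hk]
        exact hbcop.pow_right k
      · intro c hc y hy
        have hc' : c ∈ f.ker := Subgroup.zpowers_le.mpr (pow_mem x.2 _) hc
        have h1 : f c = 1 := hc'
        have h2 := DFunLike.congr_fun h1 ⟨π y, y, hy, rfl⟩
        have h3 : π c * π y * (π c)⁻¹ = π y := congrArg Subtype.val h2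
        refine (QuotientGroup.eq_one_iff _).mp ?_
        show π (y⁻¹ * c * y * c⁻¹) = 1
        rw [mul_assoc, mul_assoc, map_mul, map_inv, ← mul_assoc, map_mul, map_mul, map_inv, h3,
          inv_mul_cancel]
    have hbF : b ∈ F := hC (hcent (Subgroup.mem_zpowers b))
    obtain ⟨j, hj⟩ := IsPGroup.iff_orderOf.mp hFp ⟨b, hbF⟩
    rw [Subgroup.orderOf_mk] at hj
    have hb1 : orderOf b = 1 := Nat.eq_one_of_dvd_coprimes (hbcop.pow_right j) dvd_rfl hj.dvd
    exact ⟨i, Subtype.ext (orderOf_eq_one_iff.mp hb1)⟩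
  have hle : derivedSeries G (eBnd p n).factorial ≤ F :=
    hkerle.trans (Cfsg.Agent.PSolv.le_pCore inferInstance hKp)
  refine le_bot_iff.mp ((derivedSeries_add_le hle (pBound p n)).trans ?_)
  rw [hFbot, Subgroup.map_bot]

end Cfsg.Agent.AlmostFixed
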